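import Cfsg.Agent.H7.J4Weak
import Cfsg.Agent.H7.TopAut
import Cfsg.Agent.GH.GL4Seven
import Cfsg.Agent.S0365

/-!
# `J4`: members of `ℒ_f(G, T)` not of type `M24` (helper7)

`F` a frame of `K` (`J4`), `T` a Sylow 2-subgroup of `K` in `N(E) ∩ C(z)`, `L ∈ ℒ_f(K, T)` normalized by `T` with
`X = L / O_2(L)` quasisimple, `L` subnormal in all 2-locals containing `⟨L, T⟩`, `23 ∤ |X|`.

* `data`: `R = O_2(⟨L, T⟩)` has order `2^i`, `i ≤ 11`, `2^(21 - i)` divides `|Aut (X / Z(X))|` and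
  `i ≤ 9` or `|Ω₁(Z(R))| ≤ 2^8`;
* `two_pow_dvd`: `2^10` divides `|Aut (X / Z(X))|`;
* `false_of_31`: if `31 ∣ |L|`, `2^12 ∤ |Aut (X / Z(X))|` and `K` has two classes of involutions: contradiction.
-/

set_option autoImplicit false

namespace Cfsg.Agent.H7.J4Core

open Cfsg Subgroup Cfsg.Agent.J4Type Cfsg.Agent.H7.J4Mod Cfsg.Agent.H7.J4Bound Cfsg.Agent.H7.J4Weak
open Cfsg.Agent.QTUniq.Local Cfsg.Agent.H4

universe u

variable {K : Type u} [Group K]

/-- the setting -/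
structure Sit (F : Frame K) (T : Sylow 2 K) (L : Subgroup K) : Prop where
  card : Nat.card ↥(T : Subgroup K) = 2 ^ 21
  hTN : (T : Subgroup K) ≤ normalizer (EE F : Set K)
  hTz : ∀ x ∈ (T : Subgroup K), x * F.z = F.z * x
  hE : IsOfEvenCharacteristic K
  hL : L ∈ calLf (T : Subgroup K)
  hTL : (T : Subgroup K) ≤ normalizer (L : Set K)
  hq : IsQuasisimple (↥L ⧸ pCore 2 ↥L)
  hup : ∀ H ∈ calHOver (L ⊔ (T : Subgroup K)), L.subgroupOf H ∈ calC ↥H
  h23 : ¬ 23 ∣ Nat.card (↥L ⧸ pCore 2 ↥L)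

/-- `O_2(⟨L, T⟩)` -/
abbrev RR (T : Sylow 2 K) (L : Subgroup K) : Subgroup K :=
  (pCore 2 ↥(L ⊔ (T : Subgroup K))).map (L ⊔ (T : Subgroup K)).subtype

/-- `Ω₁(Z(O_2(⟨L, T⟩)))` -/
abbrev UU (T : Sylow 2 K) (L : Subgroup K) : Subgroup K := Lf.UU (L ⊔ (T : Subgroup K))

/-- subnormal subgroups of simple groups -/
theorem subnormal_simple {X : Type*} [Group X] [IsSimpleGroup X] {N : Subgroup X} (h : N.IsSubnormal) :
    N = ⊥ ∨ N = ⊤ := by
  induction h with
  | top => exact Or.inr rfl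
  | step H K hle hsn hN ih =>
    rcases ih with rfl | rfl
    · exact Or.inl (le_bot_iff.1 hle)
    · have : H.Normal := by
        rw [normal_subgroupOf_iff_le_normalizer hle] at hN
        exact normalizer_eq_top_iff.1 (top_le_iff.1 hN)
      exact this.eq_bot_or_eq_top

section

variable {F : Frame K} {T : Sylow 2 K} {L : Subgroup K}

theorem Sit.EE_le_T [Finite K] (S : Sit F T L) : EE F ≤ (T : Subgroup K) := by
  have : Fact (Nat.Prime 2) := ⟨Nat.prime_two⟩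
  have h1 : IsPGroup 2 ↥(EE F) := IsPGroup.of_card (EE_card F)
  have h2 : IsPGroup 2 ↥(EE F ⊔ (T : Subgroup K)) := by
    rw [sup_comm]
    exact T.isPGroup'.to_sup_of_normal_right' h1 S.hTN
  have h3 := T.is_maximal' h2 le_sup_right
  rw [← h3]
  exact le_sup_left

/-- `⟨L, T⟩` does not normalize `E` -/
theorem Sit.not_le [Finite K] (S : Sit F T L) : ¬ L ⊔ (T : Subgroup K) ≤ normalizer (EE F : Set K) := by
  intro hle
  have : Fact (Nat.Prime 2) := ⟨Nat.prime_two⟩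
  set N : Subgroup K := normalizer (EE F : Set K) with hN
  have hEN : EE F ≤ N := le_normalizer
  have hcore : pCore 2 ↥N ≠ ⊥ := by
    intro h
    have h1 : (EE F).subgroupOf N ≤ pCore 2 ↥N := by
      refine le_sSup ⟨?_, ?_⟩
      · exact (normal_subgroupOf_iff_le_normalizer hEN).2 le_rfl
      · exact (IsPGroup.of_card (EE_card F) : IsPGroup 2 ↥(EE F)).comap_of_injective N.subtype (subtype_injective _)
    rw [h, le_bot_iff, subgroupOf_eq_bot] at h1
    have h2 : EE F = ⊥ := by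
      rw [eq_bot_iff]
      intro x hx
      exact disjoint_def.1 h1 hx (hEN hx)
    have h3 := EE_card F
    rw [h2, card_bot] at h3
    norm_num at h3
  have h1 := S.hup N ⟨hcore, hle⟩
  obtain ⟨hne, hperf, hsub, -⟩ := h1
  have hLN : L ≤ N := le_sup_left.trans hle
  -- the image in `M24`
  have hsimp : IsSimpleGroup M24 := by
    have := Cfsg.Agent.S0365.result
    exact this
  have h2 : ((L.subgroupOf N).map F.π).IsSubnormal := hsub.map F.π_surj
  have h23L : 23 ∣ Nat.card ↥L := by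
    rcases subnormal_simple h2 with h3 | h3
    · exfalso
      -- `L ≤ E`, abelian
      have h4 : L ≤ EE F := by
        intro x hx
        have h5 : F.π ⟨x, hLN hx⟩ ∈ (L.subgroupOf N).map F.π := ⟨⟨x, hLN hx⟩, hx, rfl⟩
        rw [h3, mem_bot] at h5
        exact (F.π_ker _).1 h5
      have h5 : ⁅L, L⁆ = ⊥ := by
        rw [commutator_eq_bot_iff_le_centralizer]
        intro x hx
        rw [mem_centralizer_iff]
        intro y hy
        exact (EE_el F).2 y (h4 hy) x (h4 hx)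
      rw [Lf.perfect S.hL.1] at h5
      exact Lf.ne_bot S.hL.1 h5
    · have h4 : Nat.card M24 ∣ Nat.card ↥(L.subgroupOf N) := by
        have h5 := Subgroup.card_map_dvd (L.subgroupOf N) F.π
        rw [h3, card_top] at h5
        exact h5
      rw [Nat.card_congr (subgroupOfEquivOfLe hLN).toEquiv] at h4
      refine Dvd.dvd.trans ?_ h4
      have h5 : Nat.card M24 = 244823040 := Cfsg.Agent.S0364.result
      rw [h5]; norm_num
  have h3 := Subgroup.card_eq_card_quotient_mul_card_subgroup (pCore 2 ↥L)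
  rw [h3] at h23L
  rcases (Nat.Prime.dvd_mul (by norm_num)).1 h23L with h4 | h4
  · exact S.h23 h4
  · obtain ⟨k, hk⟩ := IsPGroup.iff_card.1 (Cfsg.Agent.Lib.Cores.pCore_isPGroup 2 : IsPGroup 2 ↥(pCore 2 ↥L))
    rw [hk] at h4
    have h5 := (Nat.Prime.dvd_of_dvd_pow (by norm_num : Nat.Prime 23) h4)
    revert h5
    norm_num

theorem Sit.RR_le [Finite K] (_ : Sit F T L) : RR T L ≤ (T : Subgroup K) := map_pCore_le_sylow T le_sup_right

theorem Sit.UU_le [Finite K] (_ : Sit F T L) : UU T L ≤ RR T L := fun _ hx => (Lf.mem_omega.1 hx).1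

theorem Sit.le_norm_RR (_ : Sit F T L) : L ⊔ (T : Subgroup K) ≤ normalizer (RR T L : Set K) :=
  le_normalizer_map_pCore 2 _

theorem Sit.le_norm_UU (S : Sit F T L) : L ⊔ (T : Subgroup K) ≤ normalizer (UU T L : Set K) :=
  S.le_norm_RR.trans (Lf.normalizer_le_omega _)

theorem Sit.UU_el (_ : Sit F T L) : IsElem2 (UU T L) :=
  ⟨fun _ ha => (Lf.mem_omega.1 ha).2.2, fun a ha _ hb => (Lf.mem_omega.1 hb).2.1 a (Lf.mem_omega.1 ha).1⟩

theorem Sit.comm (_ : Sit F T L) : ∀ r ∈ RR T L, ∀ x ∈ UU T L, r * x = x * r :=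
  fun r hr _ hx => (Lf.mem_omega.1 hx).2.1 r hr

theorem Sit.cent_le [Finite K] (S : Sit F T L) : (T : Subgroup K) ⊓ centralizer (UU T L : Set K) ≤ RR T L := by
  have : Fact (Nat.Prime 2) := ⟨Nat.prime_two⟩
  refine TopAut.cent_le_core T.isPGroup' S.hTL (Lf.perfect S.hL.1) S.hq S.le_norm_UU ?_
  exact Lf.not_le_centralizer le_sup_left (Lf.subnormal S.hL.1) (Lf.odd_gen S.hL)
    (charTwo_of_over S.hE T le_sup_right (Lf.oTwo_ne S.hL.1)) S.hL.2.2

theorem Sit.UU_not_le [Finite K] (S : Sit F T L) : ¬ UU T L ≤ EE F := by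
  intro h
  apply S.not_le
  refine le_normalizer F S.hTN S.hTz S.RR_le S.le_norm_RR ?_
  intro e he
  apply S.cent_le
  refine ⟨S.EE_le_T he, mem_centralizer_iff.2 ?_⟩
  intro x hx
  exact (EE_el F).2 x (h hx) e he

theorem Sit.bound [Finite K] (S : Sit F T L) :
    Nat.card ↥(RR T L) ≤ 2 ^ 11 ∧ (Nat.card ↥(UU T L) ≤ 2 ^ 8 ∨ Nat.card ↥(RR T L) ≤ 2 ^ 9) :=
  J4Bound.bound F S.hTN S.card S.EE_le_T S.RR_le (le_sup_right.trans S.le_norm_RR) S.UU_le
    (le_sup_right.trans S.le_norm_UU) S.UU_el S.comm S.UU_not_le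

/-- the data -/
theorem Sit.data [Finite K] (S : Sit F T L) : ∃ i, i ≤ 11 ∧ Nat.card ↥(RR T L) = 2 ^ i ∧
    (i ≤ 9 ∨ Nat.card ↥(UU T L) ≤ 2 ^ 8) ∧
    2 ^ (21 - i) ∣ Nat.card (MulAut ((↥L ⧸ pCore 2 ↥L) ⧸ center (↥L ⧸ pCore 2 ↥L))) := by
  obtain ⟨m, hm, hmd⟩ := TopAut.exists_card_mul T S.hTL S.hq
  rw [S.card] at hm
  have h1 : Nat.card ↥(RR T L) ∣ 2 ^ 21 := ⟨m, hm⟩
  obtain ⟨i, hi, hi2⟩ := (Nat.dvd_prime_pow Nat.prime_two).1 h1
  obtain ⟨hb1, hb2⟩ := S.bound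
  rw [hi2] at hb1 hb2 hm
  have hi11 : i ≤ 11 := (Nat.pow_le_pow_iff_right (by norm_num)).1 hb1
  refine ⟨i, hi11, hi2, ?_, ?_⟩
  · rcases hb2 with h | h
    · exact Or.inr h
    · exact Or.inl ((Nat.pow_le_pow_iff_right (by norm_num)).1 h)
  · have h2 : m = 2 ^ (21 - i) := by
      have h3 : (2 : ℕ) ^ 21 = 2 ^ i * 2 ^ (21 - i) := by rw [← pow_add]; congr 1; omega
      rw [h3] at hm
      exact (Nat.eq_of_mul_eq_mul_left (by positivity) hm).symm
    rw [← h2]; exact hmd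

theorem Sit.two_pow_dvd [Finite K] (S : Sit F T L) :
    2 ^ 10 ∣ Nat.card (MulAut ((↥L ⧸ pCore 2 ↥L) ⧸ center (↥L ⧸ pCore 2 ↥L))) := by
  obtain ⟨i, hi, -, -, h⟩ := S.data
  exact (pow_dvd_pow 2 (by omega)).trans h

/-! ### elements of order 31 -/

/-- fixed points of an element of prime order -/
theorem modEq_one [Finite K] {p : ℕ} [hp : Fact p.Prime] {y : K} (hy : orderOf y = p) {V : Subgroup K}
    (hV : y ∈ normalizer (V : Set K)) (hfix : ∀ v ∈ V, y * v = v * y → v = 1) : Nat.card ↥V ≡ 1 [MOD p] := by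
  set Z : Subgroup K := zpowers y with hZ
  have hZV : Z ≤ normalizer (V : Set K) := (zpowers_le).2 hV
  let φ : ↥Z →* MulAut ↥V := V.normalizerMonoidHom.comp (inclusion hZV)
  let _ : MulAction ↥Z ↥V := MulAction.compHom ↥V φ
  have hZp : IsPGroup p ↥Z := IsPGroup.of_card (n := 1) (by rw [hZ, Nat.card_zpowers, hy, pow_one])
  have h1 := hZp.card_modEq_card_fixedPoints ↥V
  have h2 : Nat.card (MulAction.fixedPoints ↥Z ↥V) = 1 := by
    rw [Nat.card_eq_one_iff_unique]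
    refine ⟨⟨fun a b => ?_⟩, ⟨⟨1, fun g => map_one (φ g)⟩⟩⟩
    have key : ∀ a : MulAction.fixedPoints ↥Z ↥V, (a : ↥V) = 1 := by
      intro a
      have h3 : φ ⟨y, mem_zpowers y⟩ a = a := a.2 ⟨y, mem_zpowers y⟩
      have h4 : y * (a : ↥V) * y⁻¹ = ((a : ↥V) : K) := congrArg Subtype.val h3
      exact Subtype.ext (hfix _ (a : ↥V).2 (mul_inv_eq_iff_eq_mul.1 h4))
    exact Subtype.ext ((key a).trans (key b).symm)
  rw [h2] at h1
  exact h1

/-- elements of order 31 centralize no involution -/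
theorem eq_one_of_comm_invol [Finite K] (F : Frame K)
    (hcls : ∃ x y : K, ∀ t : K, orderOf t = 2 → IsConj t x ∨ IsConj t y) {y t : K} (h31 : y ^ 31 = 1)
    (ht : orderOf t = 2) (hy : y * t = t * y) : y = 1 := by
  obtain ⟨a, b, hab⟩ := hcls
  have hpq : (none : GolayPt) ≠ some 0 := by simp
  have hz : orderOf F.z = 2 := F.z_order
  have hd : orderOf (F.ε {none, some 0}) = 2 := by
    refine orderOf_eq_prime ?_ (DuadUniq.duad_ne_one F hpq)
    rw [pow_two]
    exact (EE_el F).1 _ (F.ε_mem _ (by rw [Finset.card_pair hpq]; decide))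
  have hnc := F.duad_not_conj none (some 0) hpq
  have key : IsConj t F.z ∨ IsConj t (F.ε {none, some 0}) := by
    rcases hab t ht with h1 | h1 <;> rcases hab _ hz with h2 | h2 <;> rcases hab _ hd with h3 | h3
    · exact absurd (h2.trans h3.symm) hnc
    · exact Or.inl (h1.trans h2.symm)
    · exact Or.inr (h1.trans h3.symm)
    · exact absurd (h2.trans h3.symm) hnc
    · exact absurd (h2.trans h3.symm) hnc
    · exact Or.inr (h1.trans h3.symm)
    · exact Or.inl (h1.trans h2.symm)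
    · exact absurd (h2.trans h3.symm) hnc
  have aux : ∀ s : K, IsConj t s → ∃ y' : K, y' ^ 31 = 1 ∧ y' * s = s * y' ∧ (y' = 1 → y = 1) := by
    intro s hs
    obtain ⟨g, rfl⟩ := isConj_iff.1 hs
    refine ⟨g * y * g⁻¹, ?_, ?_, ?_⟩
    · rw [conj_pow, h31]; group
    · calc g * y * g⁻¹ * (g * t * g⁻¹) = g * (y * t) * g⁻¹ := by group
        _ = g * (t * y) * g⁻¹ := by rw [hy]
        _ = g * t * g⁻¹ * (g * y * g⁻¹) := by group
    · intro h
      exact conj_eq_one_iff.1 h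
  rcases key with h | h
  · obtain ⟨y', h1, h2, h3⟩ := aux _ h
    exact h3 (eq_one_of_comm_z F h1 h2)
  · obtain ⟨y', h1, h2, h3⟩ := aux _ h
    exact h3 (eq_one_of_comm_duad F hpq h1 h2)

theorem pow_modEq {j : ℕ} (hj : j ≤ 11) (h : 2 ^ j ≡ 1 [MOD 31]) : j = 0 ∨ j = 5 ∨ j = 10 := by
  have h1 : 2 ^ j % 31 = 1 := h
  interval_cases j <;> simp_all

theorem Sit.false_of_31 [Finite K] (S : Sit F T L)
    (hcls : ∃ x y : K, ∀ t : K, orderOf t = 2 → IsConj t x ∨ IsConj t y) (h31 : 31 ∣ Nat.card ↥L)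
    (h12 : ¬ 2 ^ 12 ∣ Nat.card (MulAut ((↥L ⧸ pCore 2 ↥L) ⧸ center (↥L ⧸ pCore 2 ↥L)))) : False := by
  have h2f : Fact (Nat.Prime 2) := ⟨Nat.prime_two⟩
  have h31f : Fact (Nat.Prime 31) := ⟨by norm_num⟩
  obtain ⟨i, hi, hic, hU8, hd⟩ := S.data
  obtain ⟨⟨y, hyL⟩, hy⟩ := exists_prime_orderOf_dvd_card' 31 h31
  rw [Subgroup.orderOf_mk] at hy
  have hy31 : y ^ 31 = 1 := by rw [← hy]; exact pow_orderOf_eq_one y
  have hy1 : y ≠ 1 := by
    rintro rfl
    rw [orderOf_one] at hy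
    norm_num at hy
  -- no fixed points in 2-groups
  have hfix : ∀ {V : Subgroup K}, IsPGroup 2 ↥V → ∀ v ∈ V, y * v = v * y → v = 1 := by
    intro V hV v hv hyv
    by_contra hv1
    obtain ⟨k, hk⟩ := (IsPGroup.iff_orderOf.1 hV) ⟨v, hv⟩
    rw [Subgroup.orderOf_mk] at hk
    have hk0 : k ≠ 0 := by
      rintro rfl
      rw [pow_zero, orderOf_eq_one_iff] at hk
      exact hv1 hk
    obtain ⟨k', rfl⟩ := Nat.exists_eq_succ_of_ne_zero hk0
    have h1 : orderOf (v ^ 2 ^ k') = 2 := by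
      rw [orderOf_pow_of_dvd (by positivity) (by rw [hk]; exact pow_dvd_pow 2 (Nat.le_succ k')), hk]
      rw [Nat.pow_div (Nat.le_succ k') (by norm_num)]
      simp
    exact hy1 (eq_one_of_comm_invol F hcls hy31 h1 ((show Commute y v from hyv).pow_right _).eq)
  have hRp : IsPGroup 2 ↥(RR T L) := T.isPGroup'.to_le S.RR_le
  have hUp : IsPGroup 2 ↥(UU T L) := hRp.to_le S.UU_le
  have hyH : y ∈ L ⊔ (T : Subgroup K) := mem_sup_left hyL
  have hR := modEq_one hy (S.le_norm_RR hyH) (hfix hRp)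
  have hU := modEq_one hy (S.le_norm_UU hyH) (hfix hUp)
  rw [hic] at hR
  have hi10 : 9 < i := by
    by_contra hcon
    exact h12 ((pow_dvd_pow 2 (by omega)).trans hd)
  have hi' : i = 10 := by
    rcases pow_modEq hi hR with h | h | h <;> omega
  subst hi'
  have hUc : Nat.card ↥(UU T L) ≤ 2 ^ 8 := by
    rcases hU8 with h | h
    · omega
    · exact h
  obtain ⟨j, hj⟩ := IsPGroup.iff_card.1 hUp
  rw [hj] at hU hUc
  have hj8 : j ≤ 8 := (Nat.pow_le_pow_iff_right (by norm_num)).1 hUc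
  have hj0 : j ≠ 0 := by
    rintro rfl
    apply S.UU_not_le
    rw [pow_zero] at hj
    rw [Subgroup.card_eq_one.1 hj]
    exact bot_le
  have hj5 : j = 5 := by
    rcases pow_modEq (by omega) hU with h | h | h <;> omega
  subst hj5
  -- the action of `T` on `U`
  set φ : ↥(T : Subgroup K) →* MulAut ↥(UU T L) :=
    (UU T L).normalizerMonoidHom.comp (inclusion (le_sup_right.trans S.le_norm_UU)) with hφ
  have hker : φ.ker ≤ (RR T L).subgroupOf (T : Subgroup K) := by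
    intro t ht
    apply S.cent_le
    refine ⟨t.2, mem_centralizer_iff.2 ?_⟩
    intro x hx
    have h1 : φ t ⟨x, hx⟩ = ⟨x, hx⟩ := by
      rw [MonoidHom.mem_ker.1 ht]; rfl
    have h2 : (t : K) * x * (t : K)⁻¹ = x := congrArg Subtype.val h1
    exact (mul_inv_eq_iff_eq_mul.1 h2).symm
  have hrc : Nat.card ↥((RR T L).subgroupOf (T : Subgroup K)) = 2 ^ 10 := by
    rw [Nat.card_congr (subgroupOfEquivOfLe S.RR_le).toEquiv, hic]
  have h11 : 2 ^ 11 ∣ Nat.card φ.range := by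
    rw [← Subgroup.index_ker]
    have h1 := Subgroup.index_dvd_of_le hker
    have h2 := ((RR T L).subgroupOf (T : Subgroup K)).card_mul_index
    rw [hrc, S.card] at h2
    have h3 : (2 : ℕ) ^ 21 = 2 ^ 10 * 2 ^ 11 := by norm_num
    rw [h3] at h2
    rw [Nat.eq_of_mul_eq_mul_left (by norm_num) h2] at h1
    exact h1
  have h12' : 2 ^ 11 ∣ Nat.card (MulAut ↥(UU T L)) := h11.trans (Subgroup.card_subgroup_dvd_card _)
  rw [Cfsg.Agent.GH.GL4Seven.card_mulAut (fun v => Subtype.ext (S.UU_el.1 v v.2)) hj] at h12'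
  revert h12'
  simp only [Fin.prod_univ_succ, Fin.prod_univ_zero]
  norm_num [Fin.val_succ]

end

end Cfsg.Agent.H7.J4Core
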