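import Mathlib
import Cfsg.Agent.QTSolv.Data
import Cfsg.Agent.Lib.CoprimeAbelian
import Cfsg.Agent.Lib.CoprimeCommutator
import Cfsg.Agent.Lib.CoprimeStab
import Cfsg.Agent.SignalizersComponents.InvariantHall

/-!
# A small 2-group of automorphisms of `V` with few fixed points lost, normalizing a rank two `p`-group

Abstract part of S1852.
-/

set_option autoImplicit false

open scoped commutatorElement

namespace Cfsg.Agent.H7.XiRep

open Subgroup Cfsg
open Cfsg.Agent.QTSolv.Data (Dat mem_normalizer_of_conj mem_normalizer_sup)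

variable {H : Type*} [Group H]

/-! ### Indices of centralizers -/

/-- `|V : C_V(a)|` -/
noncomputable def ix (V : Subgroup H) (a : H) : ℕ := (centralizer ({a} : Set H)).relIndex V

theorem mem_cen {a x : H} : x ∈ centralizer ({a} : Set H) ↔ x * a = a * x := mem_centralizer_singleton_iff

theorem map_centralizer_conj (g a : H) :
    (centralizer ({a} : Set H)).map (MulAut.conj g).toMonoidHom = centralizer ({g * a * g⁻¹} : Set H) := by
  ext y
  rw [mem_cen]
  constructor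
  · rintro ⟨x, hx, rfl⟩
    have h3 : x * a = a * x := mem_cen.1 hx
    change g * x * g⁻¹ * (g * a * g⁻¹) = g * a * g⁻¹ * (g * x * g⁻¹)
    have e1 : g * x * g⁻¹ * (g * a * g⁻¹) = g * (x * a) * g⁻¹ := by group
    have e2 : g * a * g⁻¹ * (g * x * g⁻¹) = g * (a * x) * g⁻¹ := by group
    rw [e1, e2, h3]
  · intro hy
    refine ⟨g⁻¹ * y * g, ?_, by change g * (g⁻¹ * y * g) * g⁻¹ = y; group⟩
    change g⁻¹ * y * g ∈ centralizer ({a} : Set H)
    rw [mem_cen]
    have e1 : g⁻¹ * y * g * a = g⁻¹ * (y * (g * a * g⁻¹)) * g := by group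
    have e2 : a * (g⁻¹ * y * g) = g⁻¹ * ((g * a * g⁻¹) * y) * g := by group
    rw [e1, e2, hy]

theorem map_conj_of_mem_normalizer {V : Subgroup H} {g : H} (hg : g ∈ normalizer (V : Set H)) :
    V.map (MulAut.conj g).toMonoidHom = V := by
  apply le_antisymm
  · rintro _ ⟨x, hx, rfl⟩
    exact (mem_normalizer_iff.1 hg x).1 hx
  · intro x hx
    refine ⟨g⁻¹ * x * g, ?_, by change g * (g⁻¹ * x * g) * g⁻¹ = x; group⟩
    have := (mem_normalizer_iff.1 (inv_mem hg) x).1 hx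
    simpa using this

theorem ix_conj {V : Subgroup H} {g : H} (hg : g ∈ normalizer (V : Set H)) (a : H) : ix V (g * a * g⁻¹) = ix V a := by
  have h1 := relIndex_map_map_of_injective (centralizer ({a} : Set H)) V
    (f := (MulAut.conj g).toMonoidHom) (MulAut.conj g).injective
  rw [map_centralizer_conj, map_conj_of_mem_normalizer hg] at h1
  exact h1

theorem ix_ne_zero [Finite H] (V : Subgroup H) (a : H) : ix V a ≠ 0 := by
  have h : Finite (↥V ⧸ (centralizer ({a} : Set H)).subgroupOf V) := inferInstance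
  exact index_ne_zero_of_finite

theorem ix_eq_one {V : Subgroup H} {a : H} : ix V a = 1 ↔ a ∈ centralizer (V : Set H) := by
  rw [ix, relIndex_eq_one]
  constructor
  · intro h
    rw [mem_centralizer_iff]
    intro v hv
    exact mem_cen.1 (h hv)
  · intro h v hv
    rw [mem_cen]
    exact (mem_centralizer_iff.1 h) v hv

theorem card_eq (V : Subgroup H) (a : H) :
    Nat.card ↥(V ⊓ centralizer ({a} : Set H)) * ix V a = Nat.card V := by
  have h1 := relIndex_mul_relIndex (⊥ : Subgroup H) (V ⊓ centralizer ({a} : Set H)) V bot_le inf_le_left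
  rw [relIndex_bot_left, relIndex_bot_left, inf_relIndex_left] at h1
  exact h1

/-- if `a` inverts `x`, of odd order, then `|V : C_V(x)| ≤ |V : C_V(a)|²`. -/
theorem ix_le_sq [Finite H] {V : Subgroup H} {a x : H} (hx : x ∈ normalizer (V : Set H)) (ho : Odd (orderOf x))
    (hax : a * x * a⁻¹ = x⁻¹) : ix V x ≤ ix V a ^ 2 := by
  have h1 : centralizer ({a} : Set H) ⊓ centralizer ({x * a * x⁻¹} : Set H) ≤ centralizer ({x} : Set H) := by
    rintro v ⟨h1, h2⟩
    replace h1 := mem_cen.1 h1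
    replace h2 := mem_cen.1 h2
    have h3 : x * a * x⁻¹ * a⁻¹ = x * x := by
      have : x * a * x⁻¹ * a⁻¹ = x * (a * x * a⁻¹)⁻¹ := by group
      rw [this, hax, inv_inv]
    have hv : Commute v (x * x) := by
      rw [← h3]
      exact (show Commute v (x * a * x⁻¹) from h2).mul_right (show Commute v a from h1).inv_right
    obtain ⟨m, hm⟩ := exists_pow_eq_self_of_coprime (n := 2) (x := x) (by
      rw [Nat.coprime_two_left]; exact ho)
    rw [mem_cen]
    rw [← hm, pow_two]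
    exact (hv.pow_right m).eq
  calc ix V x ≤ (centralizer ({a} : Set H) ⊓ centralizer ({x * a * x⁻¹} : Set H)).relIndex V := by
        apply relIndex_le_of_le_left h1
        have h : Finite (↥V ⧸ (centralizer ({a} : Set H) ⊓ centralizer ({x * a * x⁻¹} : Set H)).subgroupOf V) :=
          inferInstance
        exact index_ne_zero_of_finite
    _ ≤ ix V a * ix V (x * a * x⁻¹) := relIndex_inf_le
    _ = ix V a ^ 2 := by rw [ix_conj hx, pow_two]

/-- number of fixed points of a `p`-element modulo `p` -/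
theorem card_modEq [Finite H] {p : ℕ} [Fact p.Prime] {A V : Subgroup H} (hA : IsPGroup p A)
    (hAV : A ≤ normalizer (V : Set H)) :
    Nat.card V ≡ Nat.card ↥(V ⊓ centralizer (A : Set H)) [MOD p] := by
  let act : MulAction A V :=
    { smul := fun a v => ⟨(a : H) * v * (a : H)⁻¹, (mem_normalizer_iff.1 (hAV a.2) v).1 v.2⟩
      one_smul := fun v => Subtype.ext (by change (1 : H) * v * (1 : H)⁻¹ = v; simp)
      mul_smul := fun a b v => Subtype.ext (by
        change ((a : H) * b) * v * ((a : H) * b)⁻¹ = (a : H) * ((b : H) * v * (b : H)⁻¹) * (a : H)⁻¹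
        group) }
  have hact : ∀ (a : A) (v : V), ((a • v : V) : H) = (a : H) * v * (a : H)⁻¹ := fun a v => rfl
  have h1 := hA.card_modEq_card_fixedPoints V
  have h2 : Nat.card (MulAction.fixedPoints A V) = Nat.card ↥(V ⊓ centralizer (A : Set H)) := by
    refine Nat.card_congr ⟨fun v => ⟨(v : V), (v : V).2, ?_⟩, fun v => ⟨⟨v, v.2.1⟩, ?_⟩, fun v => rfl, fun v => rfl⟩
    · refine mem_centralizer_iff.2 ?_
      intro a ha
      have h3 := congrArg Subtype.val (v.2 ⟨a, ha⟩)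
      rw [hact] at h3
      exact mul_inv_eq_iff_eq_mul.1 h3
    · intro a
      apply Subtype.ext
      rw [hact]
      exact mul_inv_eq_iff_eq_mul.2 ((mem_centralizer_iff.1 v.2.2) a a.2)
  rw [← h2]
  exact h1

theorem centralizer_zpowers (x : H) : centralizer ((zpowers x : Subgroup H) : Set H) = centralizer ({x} : Set H) := by
  ext y
  rw [mem_cen, mem_centralizer_iff]
  constructor
  · intro h
    exact (h x (mem_zpowers x)).symm
  · rintro h _ ⟨k, rfl⟩
    exact ((show Commute y x from h).zpow_right k).eq.symm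

/-- `|V : C_V(x)| ≡ 1` modulo `p` for `x` of order `p` acting on the 2-group `V`, `p` odd -/
theorem ix_modEq [Finite H] {p : ℕ} [hp : Fact p.Prime] (hp2 : p ≠ 2) {V : Subgroup H} {x : H} (hV : IsPGroup 2 V)
    (hx : x ∈ normalizer (V : Set H)) (hxp : x ^ p = 1) : ix V x ≡ 1 [MOD p] := by
  have hA : IsPGroup p (zpowers x) := by
    refine IsPGroup.of_card_dvd_pow (n := 1) ?_
    rw [Nat.card_zpowers, pow_one]
    exact orderOf_dvd_of_pow_eq_one hxp
  have h1 := card_modEq hA ((zpowers_le).2 hx)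
  rw [centralizer_zpowers, ← card_eq V x] at h1
  have hc : Nat.gcd p (Nat.card ↥(V ⊓ centralizer ({x} : Set H))) = 1 := by
    obtain ⟨n, hn⟩ := IsPGroup.iff_card.1 (hV.to_le (inf_le_left : V ⊓ centralizer ({x} : Set H) ≤ V))
    rw [hn]
    exact Nat.Coprime.pow_right n ((Nat.coprime_primes hp.out Nat.prime_two).2 hp2)
  have h2 : Nat.card ↥(V ⊓ centralizer ({x} : Set H)) * ix V x ≡
      Nat.card ↥(V ⊓ centralizer ({x} : Set H)) * 1 [MOD p] := by
    rw [mul_one]; exact h1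
  exact Nat.ModEq.cancel_left_of_coprime hc h2

theorem ix_pow [Finite H] {V : Subgroup H} (hV : IsPGroup 2 V) (a : H) : ∃ k : ℕ, ix V a = 2 ^ k := by
  have : Fact (Nat.Prime 2) := ⟨Nat.prime_two⟩
  exact hV.index _

/-! ### Involutions acting on `V` -/

/-- fixed points of an involution in a commutator `W = [V, x]`: if `a` inverts `x`, `a²` trivial on `W`, `x` fixed point
free on `W`, then `|W| = |C_W(a)|²`. -/
theorem card_sq [Finite H] {W : Subgroup H} (hWc : ∀ v ∈ W, ∀ w ∈ W, v * w = w * v) (hW2 : ∀ v ∈ W, v * v = 1)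
    {a x : H} (hx : x ∈ normalizer (W : Set H)) (ha : a ∈ normalizer (W : Set H)) (ho : Odd (orderOf x))
    (ha2 : a * a ∈ centralizer (W : Set H)) (hax : a * x * a⁻¹ = x⁻¹)
    (hf : W ⊓ centralizer ({x} : Set H) = ⊥) :
    Nat.card W = Nat.card ↥(W ⊓ centralizer ({a} : Set H)) ^ 2 := by
  apply le_antisymm
  · -- `|W : C_W(a)| ≤ |C_W(a)|`
    rw [← card_eq W a, pow_two]
    refine Nat.mul_le_mul_left _ ?_
    -- the map `w ↦ w (a w a⁻¹)`
    let f : W →* ↥(W ⊓ centralizer ({a} : Set H)) :=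
      { toFun := fun w => ⟨w * (a * w * a⁻¹), W.mul_mem w.2 ((mem_normalizer_iff.1 ha w).1 w.2), by
          refine mem_cen.2 ?_
          have h1 := (mem_centralizer_iff.1 ha2) w w.2
          have h2 : a * ((w : H) * (a * w * a⁻¹)) = (a * w * a⁻¹) * (a * a * w) * a⁻¹ := by group
          rw [h2, ← h1]
          have h3 : a * (w : H) * a⁻¹ * ((w : H) * (a * a)) * a⁻¹ = (a * (w : H) * a⁻¹ * (w : H)) * a := by group
          rw [h3, hWc _ ((mem_normalizer_iff.1 ha w).1 w.2) w w.2]⟩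
        map_one' := Subtype.ext (by simp)
        map_mul' := fun v w => Subtype.ext (by
          change (v : H) * w * (a * (v * w) * a⁻¹) = (v * (a * v * a⁻¹)) * (w * (a * w * a⁻¹))
          have e1 : a * ((v : H) * w) * a⁻¹ = (a * v * a⁻¹) * (a * w * a⁻¹) := by group
          rw [e1]
          have h4 := hWc w w.2 (a * v * a⁻¹) ((mem_normalizer_iff.1 ha v).1 v.2)
          calc (v : H) * w * ((a * v * a⁻¹) * (a * w * a⁻¹)) = v * (w * (a * v * a⁻¹)) * (a * w * a⁻¹) := by group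
            _ = v * ((a * v * a⁻¹) * w) * (a * w * a⁻¹) := by rw [h4]
            _ = _ := by group) }
    have hker : f.ker ≤ (centralizer ({a} : Set H)).subgroupOf W := by
      intro w hw
      have h1 : (w : H) * (a * w * a⁻¹) = 1 := congrArg Subtype.val hw
      have h2 : (w : H) * w = 1 := hW2 w w.2
      have h3 : a * (w : H) * a⁻¹ = w := mul_left_cancel (h1.trans h2.symm)
      refine mem_cen.2 ?_
      exact (mul_inv_eq_iff_eq_mul.1 h3).symm
    calc ix W a ≤ f.ker.index := by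
          refine Nat.le_of_dvd ?_ (index_dvd_of_le hker)
          exact Nat.pos_of_ne_zero index_ne_zero_of_finite
      _ = Nat.card f.range := index_ker f
      _ ≤ _ := card_le_card_group _
  · -- `C_W(a) ∩ C_W(x a x⁻¹) = 1`
    set A : Subgroup H := W ⊓ centralizer ({a} : Set H) with hA
    set B : Subgroup H := W ⊓ centralizer ({x * a * x⁻¹} : Set H) with hB
    have hAB : A ⊓ B = ⊥ := by
      rw [eq_bot_iff, ← hf]
      rintro v ⟨⟨h0, h1⟩, ⟨-, h2⟩⟩
      refine ⟨h0, ?_⟩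
      replace h1 := mem_cen.1 h1
      replace h2 := mem_cen.1 h2
      have h3 : x * a * x⁻¹ * a⁻¹ = x * x := by
        have : x * a * x⁻¹ * a⁻¹ = x * (a * x * a⁻¹)⁻¹ := by group
        rw [this, hax, inv_inv]
      have hv : Commute v (x * x) := by
        rw [← h3]
        exact (show Commute v (x * a * x⁻¹) from h2).mul_right (show Commute v a from h1).inv_right
      obtain ⟨m, hm⟩ := exists_pow_eq_self_of_coprime (n := 2) (x := x) (by
        rw [Nat.coprime_two_left]; exact ho)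
      refine mem_cen.2 ?_
      rw [← hm, pow_two]
      exact (hv.pow_right m).eq
    have hBA : A.map (MulAut.conj x).toMonoidHom = B := by
      rw [hA, hB, map_inf _ _ _ (MulAut.conj x).injective, map_centralizer_conj, map_conj_of_mem_normalizer hx]
    have hcB : Nat.card B = Nat.card A := by
      rw [← hBA]
      exact card_map_of_injective (f := (MulAut.conj x).toMonoidHom) (MulAut.conj x).injective
    have hn : B ≤ normalizer (A : Set H) := by
      intro b hb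
      rw [mem_normalizer_iff]
      intro w
      constructor
      · intro hw
        have : b * w * b⁻¹ = w := by rw [hWc b hb.1 w hw.1]; group
        rw [this]; exact hw
      · intro hw
        have h1 : w ∈ W := by
          have h2 := W.mul_mem (W.mul_mem (W.inv_mem hb.1) hw.1) hb.1
          have h3 : b⁻¹ * (b * w * b⁻¹) * b = w := by group
          rwa [h3] at h2
        have : b * w * b⁻¹ = w := by rw [hWc b hb.1 w h1]; group
        rwa [this] at hw
    have h1 := Cfsg.Agent.SignalizersComponents.InvariantHall.card_sup_of_inf_eq_bot hn hAB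
    rw [hcB, ← pow_two] at h1
    rw [← h1]
    exact card_le_of_le (sup_le inf_le_left inf_le_left)

/-- `V = C_V(A) × [V, A]` for an abelian group `V` with coprime action: orders and intersection. -/
theorem split [Finite H] {V A : Subgroup H} (hVc : ∀ v ∈ V, ∀ w ∈ V, v * w = w * v)
    (hAV : A ≤ normalizer (V : Set H)) (hcop : (Nat.card A).Coprime (Nat.card V)) :
    ⁅V, A⁆ ≤ V ∧ (V ⊓ centralizer (A : Set H)) ⊓ ⁅V, A⁆ = ⊥ ∧ (V ⊓ centralizer (A : Set H)) ⊔ ⁅V, A⁆ = V ∧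
      Nat.card ↥(V ⊓ centralizer (A : Set H)) * Nat.card ↥(⁅V, A⁆ : Subgroup H) = Nat.card V := by
  have h1 := Cfsg.Agent.Lib.CoprimeAbelian.inf_commutator_eq_bot A V hVc hAV hcop
  have h2 := Cfsg.Agent.Lib.CoprimeAbelian.sup_commutator_eq A V hVc hAV hcop
  have h0 : ⁅V, A⁆ ≤ V := Cfsg.Agent.Lib.CoprimeCommutator.commutator_le_left hAV
  refine ⟨h0, h1, h2, ?_⟩
  have hn : (⁅V, A⁆ : Subgroup H) ≤ normalizer ((V ⊓ centralizer (A : Set H) : Subgroup H) : Set H) := by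
    intro b hb
    have hbV := h0 hb
    rw [mem_normalizer_iff]
    intro w
    constructor
    · intro hw
      have : b * w * b⁻¹ = w := by rw [hVc b hbV w hw.1]; group
      rw [this]; exact hw
    · intro hw
      have h1 : w ∈ V := by
        have h2 := V.mul_mem (V.mul_mem (V.inv_mem hbV) hw.1) hbV
        have h3 : b⁻¹ * (b * w * b⁻¹) * b = w := by group
        rwa [h3] at h2
      have : b * w * b⁻¹ = w := by rw [hVc b hbV w h1]; group
      rwa [this] at hw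
  have h3 := Cfsg.Agent.SignalizersComponents.InvariantHall.card_sup_of_inf_eq_bot hn h1
  rw [← h3, h2]

theorem coprime_of_odd [Finite H] {V A : Subgroup H} (hV : IsPGroup 2 V) (hA : Odd (Nat.card A)) :
    (Nat.card A).Coprime (Nat.card V) := by
  obtain ⟨n, hn⟩ := IsPGroup.iff_card.1 hV
  rw [hn]
  exact Nat.Coprime.pow_right n ((Nat.coprime_two_right).2 hA)

/-- `|V : C_V(x)|` is a power of 4 when `x` is inverted by an involution on `V`. -/
theorem ix_eq_four_pow [Finite H] {V : Subgroup H} (hV : IsPGroup 2 V) (hVc : ∀ v ∈ V, ∀ w ∈ V, v * w = w * v)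
    (hV2 : ∀ v ∈ V, v * v = 1) {a x : H} (hx : x ∈ normalizer (V : Set H)) (ha : a ∈ normalizer (V : Set H))
    (ho : Odd (orderOf x)) (ha2 : a * a ∈ centralizer (V : Set H)) (hax : a * x * a⁻¹ = x⁻¹) :
    ∃ j : ℕ, ix V x = 4 ^ j := by
  have hcop : (Nat.card (zpowers x)).Coprime (Nat.card V) :=
    coprime_of_odd hV (by rw [Nat.card_zpowers]; exact ho)
  obtain ⟨h0, h1, h2, h3⟩ := split hVc ((zpowers_le).2 hx) hcop
  set W : Subgroup H := ⁅V, zpowers x⁆ with hW
  rw [centralizer_zpowers] at h1 h2 h3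
  have hWix : Nat.card W = ix V x := by
    have h4 := card_eq V x
    rw [← h3] at h4
    have h5 : 0 < Nat.card ↥(V ⊓ centralizer ({x} : Set H)) := Nat.card_pos
    exact (Nat.eq_of_mul_eq_mul_left h5 h4).symm
  have hxW : x ∈ normalizer (W : Set H) :=
    (Cfsg.Agent.Lib.CoprimeCommutator.right_le_normalizer_commutator V (zpowers x)) (mem_zpowers x)
  have haW : a ∈ normalizer (W : Set H) := by
    rw [← Subgroup.mem_toSubmonoid]
    have key : ∀ b : H, b ∈ normalizer (V : Set H) → b ∈ normalizer ((zpowers x : Subgroup H) : Set H) →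
        ∀ w ∈ W, b * w * b⁻¹ ∈ W := by
      intro b hb hbx
      have h4 : W ≤ W.comap (MulAut.conj b).toMonoidHom := by
        rw [hW, commutator_le]
        intro v hv y hy
        change b * ⁅v, y⁆ * b⁻¹ ∈ W
        have h5 : b * ⁅v, y⁆ * b⁻¹ = ⁅b * v * b⁻¹, b * y * b⁻¹⁆ := by
          simp only [commutatorElement_def]; group
        rw [h5]
        exact commutator_mem_commutator ((mem_normalizer_iff.1 hb v).1 hv) ((mem_normalizer_iff.1 hbx y).1 hy)
      intro w hw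
      exact h4 hw
    have hax' : a ∈ normalizer ((zpowers x : Subgroup H) : Set H) := by
      apply mem_normalizer_of_conj
      rintro _ ⟨k, rfl⟩
      refine ⟨-k, ?_⟩
      change x ^ (-k) = a * x ^ k * a⁻¹
      rw [← conj_zpow, hax, inv_zpow, zpow_neg]
    exact mem_normalizer_of_conj (key a ha hax')
  have h6 := card_sq (W := W) (fun v hv w hw => hVc v (h0 hv) w (h0 hw)) (fun v hv => hV2 v (h0 hv)) hxW haW ho
    (centralizer_le (show (W : Set H) ⊆ V from h0) ha2) hax (by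
      rw [eq_bot_iff, ← h1]
      rintro w ⟨hw, hw2⟩
      exact ⟨⟨h0 hw, hw2⟩, hw⟩)
  obtain ⟨j, hj⟩ := IsPGroup.iff_card.1 (hV.to_le (inf_le_left.trans h0 : W ⊓ centralizer ({a} : Set H) ≤ V))
  refine ⟨j, ?_⟩
  rw [← hWix, h6, hj, ← pow_mul, mul_comm, pow_mul]
  norm_num

/-! ### The configuration -/

/-- `P` and `S` act on the elementary abelian 2-group `V`, with the same kernel on `V` as on `P` for `S`. -/
structure Conf (p : ℕ) (P S F V : Subgroup H) : Prop where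
  dat : Dat p P S F
  Vp : IsPGroup 2 V
  Vc : ∀ v ∈ V, ∀ w ∈ V, v * w = w * v
  V2 : ∀ v ∈ V, v * v = 1
  PV : P ≤ normalizer (V : Set H)
  SV : S ≤ normalizer (V : Set H)
  S2 : IsPGroup 2 S
  ker : ∀ s ∈ S, s ∈ centralizer (V : Set H) → s ∈ centralizer (P : Set H)
  ker' : ∀ s ∈ S, s ∈ centralizer (P : Set H) → s ∈ centralizer (V : Set H)
  ne : ¬ P ≤ centralizer (V : Set H)

/-- **Burnside**: a `q`-group stabilizing the chain `P ≥ L ≥ F` centralizes `P`. -/
theorem burnside [Finite H] {p q : ℕ} {P S F A L : Subgroup H} (D : Dat p P S F) [Fact q.Prime] (hqp : q ≠ p)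
    (hA : IsPGroup q A) (hAP : A ≤ normalizer (P : Set H)) (hAL : A ≤ normalizer (L : Set H)) (hLP : L ≤ P)
    (h1 : ⁅P, A⁆ ≤ L) (h2 : ⁅L, A⁆ ≤ F) : A ≤ centralizer (P : Set H) := by
  have hpf : Fact p.Prime := ⟨D.prime⟩
  have hnd : ∀ Y : Subgroup H, Y ≤ P → ¬ q ∣ Nat.card Y := by
    intro Y hY hq
    obtain ⟨n, hn⟩ := IsPGroup.iff_card.1 (D.pgroup.to_le hY)
    rw [hn] at hq
    exact hqp ((Nat.prime_dvd_prime_iff_eq Fact.out D.prime).1 (Nat.Prime.dvd_of_dvd_pow Fact.out hq))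
  have h3 : (P ⊓ centralizer (A : Set H)) ⊔ F = P := by
    apply le_antisymm (sup_le inf_le_left D.F_le)
    intro k hk
    obtain ⟨m, hm, c, hc, rfl⟩ := Cfsg.Agent.Lib.CoprimeCommutator.exists_commutator_mul_fixed_of_isPGroup q A P hA
      hAP (hnd P le_rfl) k hk
    obtain ⟨m', hm', c', hc', rfl⟩ := Cfsg.Agent.Lib.CoprimeCommutator.exists_commutator_mul_fixed_of_isPGroup q A L
      hA hAL (hnd L hLP) m (h1 hm)
    exact mul_mem (mul_mem (mem_sup_right (h2 hm')) (mem_sup_left ⟨hLP hc'.1, hc'.2⟩)) (mem_sup_left hc)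
  have h4 := D.ngen _ inf_le_left h3
  intro a ha
  rw [mem_centralizer_iff]
  intro y hy
  have h5 : y ∈ P ⊓ centralizer (A : Set H) := by rw [h4]; exact hy
  exact ((mem_centralizer_iff.1 h5.2) a ha).symm

namespace Conf

variable {p : ℕ} {P S F V : Subgroup H}

theorem F_le_of_inf [Finite H] (C : Conf p P S F V) : P ⊓ centralizer (V : Set H) ≤ F := by
  set K : Subgroup H := P ⊓ centralizer (V : Set H) with hK
  have hSK : S ≤ normalizer (K : Set H) := by
    intro s hs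
    apply mem_normalizer_of_conj
    intro y hy
    refine ⟨(mem_normalizer_iff.1 (C.dat.S_le hs) y).1 hy.1, ?_⟩
    refine mem_centralizer_iff.2 ?_
    intro v hv
    have h1 : s⁻¹ * v * s ∈ V := by
      have := (mem_normalizer_iff.1 (inv_mem (C.SV hs)) v).1 hv
      simpa using this
    have h2 := (mem_centralizer_iff.1 hy.2) _ h1
    have e1 : v * (s * y * s⁻¹) = s * ((s⁻¹ * v * s) * y) * s⁻¹ := by group
    have e2 : s * y * s⁻¹ * v = s * (y * (s⁻¹ * v * s)) * s⁻¹ := by group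
    rw [e1, e2, h2]
  rcases C.dat.irr (K ⊔ F) le_sup_right (sup_le inf_le_left C.dat.F_le)
    (fun s hs => mem_normalizer_sup (hSK hs) (C.dat.F_norm hs)) with h | h
  · rw [← h]; exact le_sup_left
  · exfalso
    have h1 := C.dat.ngen K inf_le_left h
    apply C.ne
    rw [← h1]
    exact inf_le_right

theorem not_mem_centralizer [Finite H] (C : Conf p P S F V) {x : H} (hx : x ∈ P) (hxF : x ∉ F) :
    x ∉ centralizer (V : Set H) := fun h => hxF (C.F_le_of_inf ⟨hx, h⟩)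

/-- the elements of `S` acting trivially on `L / L₀` -/
def trivOn (B L L₀ : Subgroup H) (h0 : B ≤ normalizer (L₀ : Set H)) : Subgroup H where
  carrier := {b | b ∈ B ∧ ∀ y ∈ L, ⁅y, b⁆ ∈ L₀}
  one_mem' := ⟨one_mem _, fun y _ => by simp [L₀.one_mem]⟩
  mul_mem' := by
    rintro b c ⟨hb1, hb3⟩ ⟨hc1, hc3⟩
    refine ⟨mul_mem hb1 hc1, fun y hy => ?_⟩
    have e : ⁅y, b * c⁆ = ⁅y, b⁆ * (b * ⁅y, c⁆ * b⁻¹) := by
      simp only [commutatorElement_def]; group
    rw [e]
    exact L₀.mul_mem (hb3 y hy) ((mem_normalizer_iff.1 (h0 hb1) _).1 (hc3 y hy))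
  inv_mem' := by
    rintro b ⟨hb1, hb3⟩
    refine ⟨inv_mem hb1, fun y hy => ?_⟩
    have e : ⁅y, b⁻¹⁆ = b⁻¹ * ⁅y, b⁆⁻¹ * b⁻¹⁻¹ := by
      simp only [commutatorElement_def]; group
    rw [e]
    exact (mem_normalizer_iff.1 (inv_mem (h0 hb1)) _).1 (L₀.inv_mem (hb3 y hy))

theorem mem_trivOn {B L L₀ : Subgroup H} {h0 : B ≤ normalizer (L₀ : Set H)} {b : H} :
    b ∈ trivOn B L L₀ h0 ↔ b ∈ B ∧ ∀ y ∈ L, ⁅y, b⁆ ∈ L₀ := Iff.rfl

/-- an element of `S` trivial on `P / F` centralizes `P` -/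
theorem mem_centralizer_of_triv [Finite H] (C : Conf p P S F V) {a : H} (ha : a ∈ S)
    (h1 : ∀ y ∈ P, ⁅y, a⁆ ∈ F) : a ∈ centralizer (P : Set H) := by
  have h2f : Fact (Nat.Prime 2) := ⟨Nat.prime_two⟩
  have haP := C.dat.S_le ha
  have hA : IsPGroup 2 (zpowers a) := C.S2.to_le ((zpowers_le).2 ha)
  have hAP : zpowers a ≤ normalizer (P : Set H) := (zpowers_le).2 haP
  refine (burnside C.dat (fun h => C.dat.odd h.symm) hA hAP hAP le_rfl ?_ ?_) (mem_zpowers a)
  · exact Cfsg.Agent.Lib.CoprimeCommutator.commutator_le_left hAP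
  · rw [commutator_le]
    rintro y hy _ ⟨k, rfl⟩
    have haT : a ∈ trivOn S P F C.dat.F_norm := ⟨ha, h1⟩
    exact ((trivOn S P F C.dat.F_norm).zpow_mem haT k).2 y hy

/-- `⁅y, a⁆` is inverted by `a` when `a²` centralizes `P` -/
theorem inverted {a y : H} (ha2P : a * a ∈ centralizer (P : Set H)) (hy : y ∈ P) : a * ⁅y, a⁆ * a⁻¹ = ⁅y, a⁆⁻¹ := by
  rw [commutatorElement_def]
  have h2 := (mem_centralizer_iff.1 ha2P) y⁻¹ (P.inv_mem hy)
  have e1 : a * (y * a * y⁻¹ * a⁻¹) * a⁻¹ = a * y * (a * y⁻¹ * a⁻¹ * a⁻¹) := by group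
  have e2 : a * y⁻¹ * a⁻¹ * a⁻¹ = a⁻¹ * y⁻¹ := by
    have h3 : a * a * y⁻¹ = y⁻¹ * (a * a) := h2.symm
    calc a * y⁻¹ * a⁻¹ * a⁻¹ = a⁻¹ * (a * a * y⁻¹) * a⁻¹ * a⁻¹ := by group
      _ = a⁻¹ * (y⁻¹ * (a * a)) * a⁻¹ * a⁻¹ := by rw [h3]
      _ = _ := by group
  rw [e1, e2]
  group

theorem commutator_mem {L : Subgroup H} {a y : H} (ha : a ∈ normalizer (L : Set H)) (hy : y ∈ L) : ⁅y, a⁆ ∈ L := by
  rw [commutatorElement_def]
  have e : y * a * y⁻¹ * a⁻¹ = y * (a * y⁻¹ * a⁻¹) := by group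
  rw [e]
  exact L.mul_mem hy ((mem_normalizer_iff.1 ha _).1 (L.inv_mem hy))

/-- an element of `S` acting on `V` as an involution inverts an element of `P` outside `F` -/
theorem exists_inverted [Finite H] (C : Conf p P S F V) {a : H} (ha : a ∈ S) (ha2 : a * a ∈ centralizer (V : Set H))
    (hne : a ∉ centralizer (V : Set H)) : ∃ x ∈ P, x ∉ F ∧ a * x * a⁻¹ = x⁻¹ := by
  have haP := C.dat.S_le ha
  have ha2P : a * a ∈ centralizer (P : Set H) := C.ker _ (S.mul_mem ha ha) ha2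
  by_contra hcon
  push Not at hcon
  apply hne
  apply C.ker' a ha
  apply C.mem_centralizer_of_triv ha
  intro y hy
  by_contra hyF
  exact hcon _ (commutator_mem haP hy) hyF (inverted ha2P hy)

/-- an element acts as `±1` on a section of prime order when its square acts trivially -/
theorem sign {L₀ L : Subgroup H} {b : H} (hb0 : b ∈ normalizer (L₀ : Set H)) (hb : b ∈ normalizer (L : Set H))
    (hL : L ≤ normalizer (L₀ : Set H)) (hLL : ⁅L, L⁆ ≤ L₀) (hle : L₀ ≤ L)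
    (hirr : ∀ Y : Subgroup H, L₀ ≤ Y → Y ≤ L → Y = L₀ ∨ Y = L) (hb2 : ∀ y ∈ L, ⁅y, b * b⁆ ∈ L₀) :
    (∀ y ∈ L, ⁅y, b⁆ ∈ L₀) ∨ (∀ y ∈ L, y * (b * y * b⁻¹) ∈ L₀) := by
  -- the fixed points modulo `L₀`
  let Y : Subgroup H :=
    { carrier := {y | y ∈ L ∧ ⁅y, b⁆ ∈ L₀}
      one_mem' := ⟨one_mem _, by simp [L₀.one_mem]⟩
      mul_mem' := by
        rintro y z ⟨hy1, hy2⟩ ⟨hz1, hz2⟩
        refine ⟨mul_mem hy1 hz1, ?_⟩
        have e : ⁅y * z, b⁆ = (y * ⁅z, b⁆ * y⁻¹) * ⁅y, b⁆ := by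
          simp only [commutatorElement_def]; group
        rw [e]
        exact L₀.mul_mem ((mem_normalizer_iff.1 (hL hy1) _).1 hz2) hy2
      inv_mem' := by
        rintro y ⟨hy1, hy2⟩
        refine ⟨inv_mem hy1, ?_⟩
        have e : ⁅y⁻¹, b⁆ = y⁻¹ * ⁅y, b⁆⁻¹ * y⁻¹⁻¹ := by
          simp only [commutatorElement_def]; group
        rw [e]
        exact (mem_normalizer_iff.1 (inv_mem (hL hy1)) _).1 (L₀.inv_mem hy2) }
  have hY : ∀ y, y ∈ Y ↔ y ∈ L ∧ ⁅y, b⁆ ∈ L₀ := fun y => Iff.rfl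
  rcases hirr Y (fun y hy => ⟨hle hy, commutator_mem hb0 hy⟩) (fun y hy => hy.1) with h | h
  · right
    intro y hy
    rw [← h, hY]
    have hby : b * y * b⁻¹ ∈ L := (mem_normalizer_iff.1 hb y).1 hy
    refine ⟨L.mul_mem hy hby, ?_⟩
    -- `⁅y (b y b⁻¹), b⁆`
    have h1 := hb2 y⁻¹ (L.inv_mem hy)
    have h2 : ⁅y⁻¹, b * b⁆ = y⁻¹ * (b * b * y * b⁻¹ * b⁻¹) := by
      simp only [commutatorElement_def]; group
    rw [h2] at h1
    have h3 : ⁅y * (b * y * b⁻¹), b⁆ = ⁅y, b * y * b⁻¹⁆ * ((b * y * b⁻¹) * (y * (b * b * y * b⁻¹ * b⁻¹)⁻¹) *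
        (b * y * b⁻¹)⁻¹) := by
      simp only [commutatorElement_def]; group
    rw [h3]
    refine L₀.mul_mem (hLL (commutator_mem_commutator hy hby)) ?_
    refine (mem_normalizer_iff.1 (hL hby) _).1 ?_
    have h4 : y * (b * b * y * b⁻¹ * b⁻¹)⁻¹ = y * (y⁻¹ * (b * b * y * b⁻¹ * b⁻¹))⁻¹ * y⁻¹ := by group
    rw [h4]
    exact (mem_normalizer_iff.1 (hL hy) _).1 (L₀.inv_mem h1)
  · left
    intro y hy
    rw [← h] at hy
    exact hy.2

/-- the elements acting trivially on a section of prime order have index at most two -/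
theorem trivOn_relIndex {B L₀ L : Subgroup H} (hB0 : B ≤ normalizer (L₀ : Set H)) (hB : B ≤ normalizer (L : Set H))
    (hL : L ≤ normalizer (L₀ : Set H)) (hLL : ⁅L, L⁆ ≤ L₀) (hle : L₀ ≤ L)
    (hirr : ∀ Y : Subgroup H, L₀ ≤ Y → Y ≤ L → Y = L₀ ∨ Y = L) (hb2 : ∀ b ∈ B, ∀ y ∈ L, ⁅y, b * b⁆ ∈ L₀) :
    (trivOn B L L₀ hB0).relIndex B ∣ 2 := by
  rw [relIndex_dvd_two_iff]
  by_cases h : ∀ b ∈ B, b ∈ trivOn B L L₀ hB0
  · exact ⟨1, one_mem _, fun b hb => Or.inr (h b hb)⟩
  · push Not at h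
    obtain ⟨a, ha, haT⟩ := h
    have ha' : ∀ y ∈ L, y * (a * y * a⁻¹) ∈ L₀ := by
      rcases sign (hB0 ha) (hB ha) hL hLL hle hirr (hb2 a ha) with h | h
      · exact absurd ⟨ha, h⟩ haT
      · exact h
    refine ⟨a, ha, fun b hb => ?_⟩
    by_cases hbT : b ∈ trivOn B L L₀ hB0
    · exact Or.inr hbT
    · left
      have hb' : ∀ y ∈ L, y * (b * y * b⁻¹) ∈ L₀ := by
        rcases sign (hB0 hb) (hB hb) hL hLL hle hirr (hb2 b hb) with h | h
        · exact absurd ⟨hb, h⟩ hbT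
        · exact h
      refine ⟨mul_mem hb ha, fun y hy => ?_⟩
      have h1 := ha' y⁻¹ (L.inv_mem hy)
      have h2 := hb' y hy
      have h3 : ⁅y, b * a⁆ = (y * (b * y * b⁻¹)) * (b * (y⁻¹ * (a * y⁻¹ * a⁻¹)) * b⁻¹) := by
        simp only [commutatorElement_def]; group
      rw [h3]
      exact L₀.mul_mem h2 ((mem_normalizer_iff.1 (hB0 hb) _).1 h1)

theorem mem_normalizer_centralizer {V : Subgroup H} {a : H} {x : H} (h : x * a = a * x)
    (hx : x ∈ normalizer (V : Set H)) : x ∈ normalizer ((V ⊓ centralizer ({a} : Set H) : Subgroup H) : Set H) := by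
  rw [mem_normalizer_iff]
  intro v
  have e : x * v * x⁻¹ ∈ centralizer ({a} : Set H) ↔ v ∈ centralizer ({a} : Set H) := by
    rw [mem_cen, mem_cen]
    have h' : x⁻¹ * a = a * x⁻¹ := by
      calc x⁻¹ * a = x⁻¹ * (a * x) * x⁻¹ := by group
        _ = x⁻¹ * (x * a) * x⁻¹ := by rw [h]
        _ = a * x⁻¹ := by group
    constructor
    · intro h1
      have e1 : v * a = x⁻¹ * (x * v * x⁻¹ * a) * x := by
        calc v * a = v * (a * x⁻¹) * x := by group
          _ = v * (x⁻¹ * a) * x := by rw [h']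
          _ = _ := by group
      have e2 : a * v = x⁻¹ * (a * (x * v * x⁻¹)) * x := by
        calc a * v = (a * x⁻¹) * x * v := by group
          _ = (x⁻¹ * a) * x * v := by rw [h']
          _ = _ := by group
      rw [e1, e2, h1]
    · intro h1
      calc x * v * x⁻¹ * a = x * v * (x⁻¹ * a) := by group
        _ = x * v * (a * x⁻¹) := by rw [h']
        _ = x * (v * a) * x⁻¹ := by group
        _ = x * (a * v) * x⁻¹ := by rw [h1]
        _ = (x * a) * v * x⁻¹ := by group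
        _ = (a * x) * v * x⁻¹ := by rw [h]
        _ = _ := by group
  constructor
  · rintro ⟨h1, h2⟩
    exact ⟨(mem_normalizer_iff.1 hx v).1 h1, e.2 h2⟩
  · rintro ⟨h1, h2⟩
    exact ⟨(mem_normalizer_iff.1 hx v).2 h1, e.1 h2⟩

/-- **Reduction to a single involution.** -/
theorem exists_small [Finite H] (C : Conf p P S F V) (hp5 : 5 ≤ p) {B : Subgroup H} (hBS : B ≤ S)
    (hne : ¬ B ≤ centralizer (V : Set H)) (hsq : ∀ b ∈ B, b * b ∈ centralizer (V : Set H))
    (hcomm : ∀ b ∈ B, ∀ b' ∈ B, b * b' * b⁻¹ * b'⁻¹ ∈ centralizer (V : Set H))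
    (hidx : (centralizer (B : Set H)).relIndex V ≤ ((centralizer (V : Set H)).relIndex B) ^ 2) :
    ∃ a ∈ S, ∃ x ∈ P, x ∉ F ∧ a * a ∈ centralizer (V : Set H) ∧ a ∉ centralizer (V : Set H) ∧
      a * x * a⁻¹ = x⁻¹ ∧ ix V a ≤ 4 := by
  have hpf : Fact p.Prime := ⟨C.dat.prime⟩
  -- it is enough to find `a`
  suffices h : ∃ a ∈ B, a ∉ centralizer (V : Set H) ∧ ix V a ≤ 4 by
    obtain ⟨a, ha, haV, hix⟩ := h
    obtain ⟨x, hx, hxF, hax⟩ := C.exists_inverted (hBS ha) (hsq a ha) haV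
    exact ⟨a, hBS ha, x, hx, hxF, hsq a ha, haV, hax, hix⟩
  have hcen : ∀ a ∈ B, ix V a ≤ (centralizer (B : Set H)).relIndex V := by
    intro a ha
    apply relIndex_le_of_le_left (centralizer_le (Set.singleton_subset_iff.2 ha))
    have h : Finite (↥V ⧸ (centralizer (B : Set H)).subgroupOf V) := inferInstance
    exact index_ne_zero_of_finite
  by_cases hm : (centralizer (V : Set H)).relIndex B ≤ 2
  · obtain ⟨a, ha, haV⟩ := SetLike.not_le_iff_exists.1 hne
    refine ⟨a, ha, haV, (hcen a ha).trans (hidx.trans ?_)⟩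
    calc _ ≤ 2 ^ 2 := Nat.pow_le_pow_left hm 2
      _ = 4 := by norm_num
  have hFP := C.dat.F_le
  have hPF : P ≤ normalizer (F : Set H) := by
    intro y hy
    apply mem_normalizer_of_conj
    intro f hf
    have h1 := C.dat.F_central hf hy
    have h2 : y * f * y⁻¹ = f := by rw [← h1]; group
    rw [h2]; exact hf
  have hBP : B ≤ normalizer (P : Set H) := hBS.trans C.dat.S_le
  have hBF : B ≤ normalizer (F : Set H) := hBS.trans C.dat.F_norm
  have hsqP : ∀ b ∈ B, b * b ∈ centralizer (P : Set H) := fun b hb =>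
    C.ker _ (S.mul_mem (hBS hb) (hBS hb)) (hsq b hb)
  have hsqc : ∀ b ∈ B, ∀ y ∈ P, ⁅y, b * b⁆ = 1 := by
    intro b hb y hy
    rw [commutatorElement_eq_one_iff_mul_comm]
    exact (mem_centralizer_iff.1 (hsqP b hb)) y hy
  -- the fixed points of `b` modulo `F`
  let L (b : H) : Subgroup H :=
    { carrier := {y | y ∈ P ∧ ⁅y, b⁆ ∈ F}
      one_mem' := ⟨one_mem _, by simp [F.one_mem]⟩
      mul_mem' := by
        rintro y z ⟨hy1, hy2⟩ ⟨hz1, hz2⟩
        refine ⟨mul_mem hy1 hz1, ?_⟩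
        have e : ⁅y * z, b⁆ = (y * ⁅z, b⁆ * y⁻¹) * ⁅y, b⁆ := by
          simp only [commutatorElement_def]; group
        rw [e]
        exact F.mul_mem ((mem_normalizer_iff.1 (hPF hy1) _).1 hz2) hy2
      inv_mem' := by
        rintro y ⟨hy1, hy2⟩
        refine ⟨inv_mem hy1, ?_⟩
        have e : ⁅y⁻¹, b⁆ = y⁻¹ * ⁅y, b⁆⁻¹ * y⁻¹⁻¹ := by
          simp only [commutatorElement_def]; group
        rw [e]
        exact (mem_normalizer_iff.1 (inv_mem (hPF hy1)) _).1 (F.inv_mem hy2) }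
  have hL : ∀ b y, y ∈ L b ↔ y ∈ P ∧ ⁅y, b⁆ ∈ F := fun b y => Iff.rfl
  have hLP : ∀ b, L b ≤ P := fun b y hy => hy.1
  have hFL : ∀ b ∈ B, F ≤ L b := fun b hb y hy => ⟨hFP hy, commutator_mem (hBF hb) hy⟩
  -- if `L b = F` then `b` inverts `P / F`
  have hinv : ∀ b ∈ B, L b = F → ∀ y ∈ P, y * (b * y * b⁻¹) ∈ F := by
    intro b hb hLb y hy
    rw [← hLb, hL]
    have hby : b * y * b⁻¹ ∈ P := (mem_normalizer_iff.1 (hBP hb) y).1 hy
    refine ⟨P.mul_mem hy hby, ?_⟩
    have h1 := hsqc b hb y⁻¹ (P.inv_mem hy)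
    have h2 : ⁅y⁻¹, b * b⁆ = y⁻¹ * (b * b * y * b⁻¹ * b⁻¹) := by
      simp only [commutatorElement_def]; group
    rw [h2] at h1
    have h3 : ⁅y * (b * y * b⁻¹), b⁆ = ⁅y, b * y * b⁻¹⁆ * ((b * y * b⁻¹) * (y * (b * b * y * b⁻¹ * b⁻¹)⁻¹) *
        (b * y * b⁻¹)⁻¹) := by
      simp only [commutatorElement_def]; group
    have h4 : y * (b * b * y * b⁻¹ * b⁻¹)⁻¹ = y * (y⁻¹ * (b * b * y * b⁻¹ * b⁻¹))⁻¹ * y⁻¹ := by group
    rw [h3, h4, h1]
    have h5 : b * y * b⁻¹ * (y * (1 : H)⁻¹ * y⁻¹) * (b * y * b⁻¹)⁻¹ = 1 := by group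
    rw [h5, mul_one]
    exact C.dat.comm (commutator_mem_commutator hy hby)
  have htriv : ∀ b ∈ B, (∀ y ∈ P, ⁅y, b⁆ ∈ F) → b ∈ centralizer (V : Set H) := fun b hb h =>
    C.ker' b (hBS hb) (C.mem_centralizer_of_triv (hBS hb) h)
  -- some `b` has fixed points on `P / F`
  obtain ⟨b, hb, hbV, hbL⟩ : ∃ b ∈ B, b ∉ centralizer (V : Set H) ∧ L b ≠ F := by
    by_contra hcon
    push Not at hcon
    obtain ⟨b1, hb1, hb1V⟩ := SetLike.not_le_iff_exists.1 hne
    apply hm
    apply Nat.le_of_dvd (by norm_num)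
    rw [relIndex_dvd_two_iff]
    refine ⟨b1, hb1, fun b2 hb2 => ?_⟩
    by_cases hb2V : b2 ∈ centralizer (V : Set H)
    · exact Or.inr hb2V
    · left
      apply htriv _ (B.mul_mem hb2 hb1)
      intro y hy
      have h1 := hinv b1 hb1 (hcon b1 hb1 hb1V) y⁻¹ (P.inv_mem hy)
      have h2 := hinv b2 hb2 (hcon b2 hb2 hb2V) y hy
      have h3 : ⁅y, b2 * b1⁆ = (y * (b2 * y * b2⁻¹)) * (b2 * (y⁻¹ * (b1 * y⁻¹ * b1⁻¹)) * b2⁻¹) := by
        simp only [commutatorElement_def]; group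
      rw [h3]
      exact F.mul_mem h2 ((mem_normalizer_iff.1 (hBF hb2) _).1 h1)
  have hLne : L b ≠ P := by
    intro h
    apply hbV
    apply htriv b hb
    intro y hy
    rw [← h] at hy
    exact hy.2
  -- orders
  have hFpos : 0 < Nat.card F := Nat.card_pos
  have hLcard : Nat.card (L b) = p * Nat.card F := by
    obtain ⟨m, hm1⟩ := card_dvd_of_le (hFL b hb)
    obtain ⟨n, hn1⟩ := card_dvd_of_le (hLP b)
    have h1 := C.dat.card
    rw [hn1, hm1] at h1
    have h2 : m * n = p ^ 2 := by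
      have h3 : (m * n) * Nat.card F = p ^ 2 * Nat.card F := by rw [← h1]; ring
      exact Nat.eq_of_mul_eq_mul_right hFpos h3
    have h3 : m ∣ p ^ 2 := ⟨n, h2.symm⟩
    obtain ⟨k, hk, hmk⟩ := (Nat.dvd_prime_pow C.dat.prime).1 h3
    have hk0 : k ≠ 0 := by
      rintro rfl
      apply hbL
      rw [pow_zero] at hmk
      rw [hmk, mul_one] at hm1
      exact (Subgroup.eq_of_le_of_card_ge (hFL b hb) hm1.le).symm
    have hk2 : k ≠ 2 := by
      rintro rfl
      apply hLne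
      rw [hmk] at h2
      have hn : n = 1 := by
        have : p ^ 2 * n = p ^ 2 * 1 := by rw [h2, mul_one]
        exact Nat.eq_of_mul_eq_mul_left (pow_pos C.dat.prime.pos 2) this
      rw [hn, mul_one] at hn1
      exact Subgroup.eq_of_le_of_card_ge (hLP b) hn1.le
    have hk1 : k = 1 := by omega
    rw [hk1, pow_one] at hmk
    rw [hm1, hmk, mul_comm]
  have hprime : ∀ L₀ L₁ : Subgroup H, L₀ ≤ L₁ → Nat.card L₁ = p * Nat.card L₀ →
      ∀ Y : Subgroup H, L₀ ≤ Y → Y ≤ L₁ → Y = L₀ ∨ Y = L₁ := by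
    intro L₀ L₁ hle hc Y h1 h2
    have hpos : 0 < Nat.card L₀ := Nat.card_pos
    obtain ⟨m, hm1⟩ := card_dvd_of_le h1
    obtain ⟨n, hn1⟩ := card_dvd_of_le h2
    rw [hn1, hm1] at hc
    have h4 : m * n = p := by
      have h3 : (m * n) * Nat.card L₀ = p * Nat.card L₀ := by rw [← hc]; ring
      exact Nat.eq_of_mul_eq_mul_right hpos h3
    rcases (Nat.dvd_prime C.dat.prime).1 ⟨n, h4.symm⟩ with h5 | h5
    · left
      rw [h5, mul_one] at hm1
      exact (Subgroup.eq_of_le_of_card_ge h1 hm1.le).symm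
    · right
      rw [h5] at h4
      have hn : n = 1 := by
        have : p * n = p * 1 := by rw [h4, mul_one]
        exact Nat.eq_of_mul_eq_mul_left C.dat.prime.pos this
      rw [hn, mul_one] at hn1
      exact Subgroup.eq_of_le_of_card_ge h2 hn1.le
  have hirr1 := hprime F (L b) (hFL b hb) hLcard
  have hirr2 := hprime (L b) P (hLP b) (by rw [hLcard, C.dat.card]; ring)
  -- `B` normalizes `L b`, and `C_P(b)`
  have hbb : ∀ b' ∈ B, ∃ c ∈ centralizer (P : Set H), b = (b' * b * b'⁻¹) * c := by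
    intro b' hb'
    refine ⟨(b' * b * b'⁻¹)⁻¹ * b, ?_, by group⟩
    have h1 := hcomm b hb b' hb'
    have h2 : b * b' * b⁻¹ * b'⁻¹ ∈ centralizer (P : Set H) := by
      refine C.ker _ ?_ h1
      exact S.mul_mem (S.mul_mem (S.mul_mem (hBS hb) (hBS hb')) (S.inv_mem (hBS hb))) (S.inv_mem (hBS hb'))
    have h3 : (b' * b * b'⁻¹)⁻¹ * b = b⁻¹ * (b * b' * b⁻¹ * b'⁻¹) * b⁻¹⁻¹ := by group
    rw [h3, mem_centralizer_iff]
    intro y hy
    have h4 : b * y * b⁻¹ ∈ P := (mem_normalizer_iff.1 (hBP hb) y).1 hy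
    have h5 := (mem_centralizer_iff.1 h2) _ h4
    generalize b * b' * b⁻¹ * b'⁻¹ = t at h5
    calc y * (b⁻¹ * t * b⁻¹⁻¹) = b⁻¹ * ((b * y * b⁻¹) * t) * b := by group
      _ = b⁻¹ * (t * (b * y * b⁻¹)) * b := by rw [h5]
      _ = _ := by group
  have hBL : B ≤ normalizer (L b : Set H) := by
    intro b' hb'
    apply mem_normalizer_of_conj
    intro y hy
    have hy' : b' * y * b'⁻¹ ∈ P := (mem_normalizer_iff.1 (hBP hb') y).1 hy.1
    refine ⟨hy', ?_⟩
    obtain ⟨c, hc, hbc⟩ := hbb b' hb'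
    have h1 : ⁅b' * y * b'⁻¹, b⁆ = b' * ⁅y, b⁆ * b'⁻¹ := by
      have h2 := (mem_centralizer_iff.1 hc) _ (P.inv_mem hy')
      calc ⁅b' * y * b'⁻¹, b⁆ = (b' * y * b'⁻¹) * b * (b' * y * b'⁻¹)⁻¹ * b⁻¹ := by
            rw [commutatorElement_def]
        _ = (b' * y * b'⁻¹) * ((b' * b * b'⁻¹) * c) * (b' * y * b'⁻¹)⁻¹ * ((b' * b * b'⁻¹) * c)⁻¹ := by rw [← hbc]
        _ = (b' * y * b'⁻¹) * (b' * b * b'⁻¹) * (c * (b' * y * b'⁻¹)⁻¹) * c⁻¹ * (b' * b * b'⁻¹)⁻¹ := by group
        _ = (b' * y * b'⁻¹) * (b' * b * b'⁻¹) * ((b' * y * b'⁻¹)⁻¹ * c) * c⁻¹ * (b' * b * b'⁻¹)⁻¹ := by rw [h2]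
        _ = _ := by rw [commutatorElement_def]; group
    rw [h1]
    exact (mem_normalizer_iff.1 (hBF hb') _).1 hy.2
  have hPL : P ≤ normalizer (L b : Set H) := by
    intro y hy
    apply mem_normalizer_of_conj
    intro z hz
    have h1 : y * z * y⁻¹ = ⁅y, z⁆ * z := by rw [commutatorElement_def]; group
    rw [h1]
    exact mul_mem (hFL b hb (C.dat.comm (commutator_mem_commutator hy hz.1))) hz
  -- the two kernels
  have hK1 := trivOn_relIndex (B := B) (L₀ := F) (L := L b) hBF hBL ((hLP b).trans hPF)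
    ((commutator_mono (hLP b) (hLP b)).trans C.dat.comm) (hFL b hb) hirr1 (fun b' hb' y hy => by
      rw [hsqc b' hb' y (hLP b hy)]; exact F.one_mem)
  have hK2 := trivOn_relIndex (B := B) (L₀ := L b) (L := P) hBL hBP hPL
    (C.dat.comm.trans (hFL b hb)) (hLP b) hirr2 (fun b' hb' y hy => by
      rw [hsqc b' hb' y hy]; exact one_mem _)
  set K1 := trivOn B (L b) F hBF with hK1d
  set K2 := trivOn B P (L b) hBL with hK2d
  have hK : K1 ⊓ K2 ≤ centralizer (V : Set H) := by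
    have h2f : Fact (Nat.Prime 2) := ⟨Nat.prime_two⟩
    rintro c ⟨hc1, hc2⟩
    have hcB : c ∈ B := hc1.1
    apply C.ker' c (hBS hcB)
    have hA : IsPGroup 2 (zpowers c) := C.S2.to_le ((zpowers_le).2 (hBS hcB))
    refine (burnside (L := L b) C.dat (fun h => C.dat.odd h.symm) hA ((zpowers_le).2 (hBP hcB))
      ((zpowers_le).2 (hBL hcB)) (hLP b) ?_ ?_) (mem_zpowers c)
    · rw [commutator_le]
      rintro y hy _ ⟨k, rfl⟩
      exact (K2.zpow_mem hc2 k).2 y hy
    · rw [commutator_le]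
      rintro y hy _ ⟨k, rfl⟩
      exact (K1.zpow_mem hc1 k).2 y hy
  have hK1' : K1.relIndex B ≤ 2 := Nat.le_of_dvd (by norm_num) hK1
  have hK2' : K2.relIndex B ≤ 2 := Nat.le_of_dvd (by norm_num) hK2
  have hne0 : ∀ K : Subgroup H, K.relIndex B ≠ 0 := by
    intro K
    have h : Finite (↥B ⧸ K.subgroupOf B) := inferInstance
    exact index_ne_zero_of_finite
  have hm4 : (centralizer (V : Set H)).relIndex B ≤ 4 := by
    calc (centralizer (V : Set H)).relIndex B ≤ (K1 ⊓ K2).relIndex B := relIndex_le_of_le_left hK (hne0 _)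
      _ ≤ K1.relIndex B * K2.relIndex B := relIndex_inf_le
      _ ≤ 2 * 2 := Nat.mul_le_mul hK1' hK2'
      _ = 4 := by norm_num
  obtain ⟨a, ha, haK⟩ : ∃ a ∈ B, a ∉ K1 := by
    by_contra hcon
    push Not at hcon
    apply hm
    have h1 : K2 ≤ centralizer (V : Set H) := fun c hc => hK ⟨hcon c hc.1, hc⟩
    exact (relIndex_le_of_le_left h1 (hne0 _)).trans hK2'
  -- an element of `C_P(b)` outside `F` inverted by `a`
  have hCb : ∀ y ∈ P, y * b = b * y → a * y * a⁻¹ * b = b * (a * y * a⁻¹) := by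
    intro y hy hyb
    obtain ⟨c, hc, hbc⟩ := hbb a ha
    have hy' : a * y * a⁻¹ ∈ P := (mem_normalizer_iff.1 (hBP ha) y).1 hy
    have h2 := (mem_centralizer_iff.1 hc) _ hy'
    calc a * y * a⁻¹ * b = a * y * a⁻¹ * ((a * b * a⁻¹) * c) := by rw [← hbc]
      _ = a * (y * b) * a⁻¹ * c := by group
      _ = a * (b * y) * a⁻¹ * c := by rw [hyb]
      _ = (a * b * a⁻¹) * ((a * y * a⁻¹) * c) := by group
      _ = (a * b * a⁻¹) * (c * (a * y * a⁻¹)) := by rw [h2]
      _ = ((a * b * a⁻¹) * c) * (a * y * a⁻¹) := by group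
      _ = _ := by rw [← hbc]
  obtain ⟨y, hyP, hyb, hyF⟩ : ∃ y ∈ P, y * b = b * y ∧ ⁅y, a⁆ ∉ F := by
    by_contra hcon
    push Not at hcon
    have h2f : Fact (Nat.Prime 2) := ⟨Nat.prime_two⟩
    apply haK
    refine ⟨ha, fun y hy => ?_⟩
    have hA : IsPGroup 2 (zpowers b) := C.S2.to_le ((zpowers_le).2 (hBS hb))
    have hnd : ¬ 2 ∣ Nat.card (L b) := by
      intro hq
      obtain ⟨n, hn⟩ := IsPGroup.iff_card.1 (C.dat.pgroup.to_le (hLP b))
      rw [hn] at hq
      exact C.dat.odd ((Nat.prime_dvd_prime_iff_eq Nat.prime_two C.dat.prime).1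
        (Nat.Prime.dvd_of_dvd_pow Nat.prime_two hq)).symm
    obtain ⟨m, hm1, c, hc, rfl⟩ := Cfsg.Agent.Lib.CoprimeCommutator.exists_commutator_mul_fixed_of_isPGroup 2
      (zpowers b) (L b) hA ((zpowers_le).2 (hBL hb)) hnd y hy
    have h1 : m ∈ F := by
      have h2 : ⁅L b, zpowers b⁆ ≤ F := by
        rw [commutator_le]
        rintro y hy _ ⟨k, rfl⟩
        have h3 : b ∈ trivOn B (L b) F hBF := ⟨hb, fun y hy => hy.2⟩
        exact ((trivOn B (L b) F hBF).zpow_mem h3 k).2 y hy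
      exact h2 hm1
    have h2 : c * b = b * c := ((mem_centralizer_iff.1 hc.2) b (mem_zpowers b)).symm
    have h3 := hcon c hc.1.1 h2
    have e : ⁅m * c, a⁆ = (m * ⁅c, a⁆ * m⁻¹) * ⁅m, a⁆ := by
      simp only [commutatorElement_def]; group
    rw [e]
    exact F.mul_mem (F.mul_mem (F.mul_mem h1 h3) (F.inv_mem h1)) (commutator_mem (hBF ha) h1)
  obtain ⟨x, hxd⟩ : ∃ x, x = ⁅y, a⁆ := ⟨_, rfl⟩
  have hxP : x ∈ P := by rw [hxd]; exact commutator_mem (hBP ha) hyP
  have hxF : x ∉ F := by rw [hxd]; exact hyF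
  have hax : a * x * a⁻¹ = x⁻¹ := by rw [hxd]; exact inverted (hsqP a ha) hyP
  have hxb : x * b = b * x := by
    have h1 : x = y * (a * y * a⁻¹)⁻¹ := by rw [hxd, commutatorElement_def]; group
    have h2 : Commute (a * y * a⁻¹) b := hCb y hyP hyb
    have h3 : Commute y b := hyb
    rw [h1]
    exact (h3.mul_left h2.inv_left).eq
  have hxp : x ^ p = 1 := C.dat.pow_eq_one x hxP
  have hodd : Odd (orderOf x) := by
    have h1 : orderOf x ∣ p := orderOf_dvd_of_pow_eq_one hxp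
    have h2 : Odd p := C.dat.prime.odd_of_ne_two C.dat.odd
    exact Odd.of_dvd_nat h2 h1
  -- the two candidates
  by_contra hcon
  push Not at hcon
  have haV : a ∉ centralizer (V : Set H) := by
    intro h
    apply haK
    refine ⟨ha, fun y hy => ?_⟩
    have h1 := (mem_centralizer_iff.1 (C.ker a (hBS ha) h)) y hy.1
    have h2 : ⁅y, a⁆ = 1 := by rw [commutatorElement_eq_one_iff_mul_comm]; exact h1
    rw [h2]; exact F.one_mem
  have hb4 := hcon b hb hbV
  set V₁ : Subgroup H := V ⊓ centralizer ({b} : Set H) with hV₁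
  -- `|V₁ : C_{V₁}(a)| ≤ 2`
  have hmul : ix V₁ a * ix V b ≤ 16 := by
    have h1 : ix V₁ a * ix V b = (centralizer ({a} : Set H) ⊓ centralizer ({b} : Set H)).relIndex V := by
      rw [ix, ix, hV₁, inf_comm V, relIndex_inf_mul_relIndex]
    rw [h1]
    calc _ ≤ (centralizer (B : Set H)).relIndex V := by
          apply relIndex_le_of_le_left
          · exact le_inf (centralizer_le (Set.singleton_subset_iff.2 ha))
              (centralizer_le (Set.singleton_subset_iff.2 hb))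
          · have h : Finite (↥V ⧸ (centralizer (B : Set H)).subgroupOf V) := inferInstance
            exact index_ne_zero_of_finite
      _ ≤ _ := hidx
      _ ≤ 4 ^ 2 := Nat.pow_le_pow_left hm4 2
      _ = 16 := by norm_num
  obtain ⟨k, hk⟩ := ix_pow C.Vp b
  have hk3 : 8 ≤ ix V b := by
    rw [hk] at hb4 ⊢
    have : 3 ≤ k := by
      by_contra h
      have h1 : k ≤ 2 := by omega
      have h2 : 2 ^ k ≤ 2 ^ 2 := Nat.pow_le_pow_right (by norm_num) h1
      omega
    calc 8 = 2 ^ 3 := by norm_num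
      _ ≤ 2 ^ k := Nat.pow_le_pow_right (by norm_num) this
  have hV₁a : ix V₁ a ≤ 2 := by
    by_contra h
    push Not at h
    have : 3 * 8 ≤ ix V₁ a * ix V b := Nat.mul_le_mul h hk3
    omega
  have hxV := C.PV hxP
  have hxV₁ : x ∈ normalizer (V₁ : Set H) := mem_normalizer_centralizer hxb hxV
  have hx1 : ix V₁ x ≤ 4 := by
    calc ix V₁ x ≤ ix V₁ a ^ 2 := ix_le_sq hxV₁ hodd hax
      _ ≤ 2 ^ 2 := Nat.pow_le_pow_left hV₁a 2
      _ = 4 := by norm_num
  have hV₁p : IsPGroup 2 V₁ := C.Vp.to_le inf_le_left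
  have hx2 : ix V₁ x = 1 := by
    have h1 := ix_modEq C.dat.odd hV₁p hxV₁ hxp
    have h2 : 0 < ix V₁ x := Nat.pos_of_ne_zero (ix_ne_zero _ _)
    have h3 : ix V₁ x % p = ix V₁ x := Nat.mod_eq_of_lt (by omega)
    have h4 : 1 % p = 1 := Nat.mod_eq_of_lt (by omega)
    rw [Nat.ModEq, h3, h4] at h1
    exact h1
  rw [ix_eq_one] at hx2
  -- hence `x` centralizes `V`
  apply C.not_mem_centralizer hxP hxF
  rw [mem_centralizer_iff]
  intro v hv
  have hcop : (orderOf x).Coprime (Nat.card V) := by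
    obtain ⟨n, hn⟩ := IsPGroup.iff_card.1 C.Vp
    rw [hn]
    exact Nat.Coprime.pow_right n ((Nat.coprime_two_right).2 hodd)
  have hvV : ⁅v, x⁆ ∈ V := commutator_mem hxV hv
  refine (Cfsg.Agent.Lib.CoprimeStab.commute_of_commutator_commute hcop hvV ?_).eq
  -- `⁅v, x⁆ ∈ V₁`
  have hbVn : b ∈ normalizer (V : Set H) := C.SV (hBS hb)
  have hbv : b * v * b⁻¹ ∈ V := (mem_normalizer_iff.1 hbVn v).1 hv
  have hd : v * (b * v * b⁻¹) ∈ V₁ := by
    refine ⟨V.mul_mem hv hbv, ?_⟩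
    refine mem_cen.2 ?_
    have h1 := (mem_centralizer_iff.1 (hsq b hb)) v hv
    calc v * (b * v * b⁻¹) * b = (v * (b * v * b⁻¹)) * b := rfl
      _ = ((b * v * b⁻¹) * v) * b := by rw [C.Vc v hv _ hbv]
      _ = b * v * b⁻¹ * b⁻¹ * (b * (v * b)) := by group
      _ = b * v * b⁻¹ * v * b := by group
      _ = b * v * b⁻¹ * (v * (b * b)) * b⁻¹ := by group
      _ = b * v * b⁻¹ * ((b * b) * v) * b⁻¹ := by rw [h1]
      _ = b * (v * (b * v * b⁻¹)) := by group
  have h1 : v * (b * v * b⁻¹) * x = x * (v * (b * v * b⁻¹)) := (mem_centralizer_iff.1 hx2) _ hd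
  have hv' : x * v * x⁻¹ ∈ V := (mem_normalizer_iff.1 hxV v).1 hv
  have hbv' : b * (x * v * x⁻¹) * b⁻¹ ∈ V := (mem_normalizer_iff.1 hbVn _).1 hv'
  have h2 : (x * v * x⁻¹) * (b * (x * v * x⁻¹) * b⁻¹) = v * (b * v * b⁻¹) := by
    have h3 : b * (x * v * x⁻¹) * b⁻¹ = x * (b * v * b⁻¹) * x⁻¹ := by
      have h4 : b * x = x * b := hxb.symm
      have h5 : x⁻¹ * b⁻¹ = b⁻¹ * x⁻¹ := by rw [← mul_inv_rev, ← mul_inv_rev, h4]
      calc b * (x * v * x⁻¹) * b⁻¹ = (b * x) * v * (x⁻¹ * b⁻¹) := by group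
        _ = (x * b) * v * (b⁻¹ * x⁻¹) := by rw [h4, h5]
        _ = _ := by group
    rw [h3]
    calc x * v * x⁻¹ * (x * (b * v * b⁻¹) * x⁻¹) = (x * (v * (b * v * b⁻¹))) * x⁻¹ := by group
      _ = (v * (b * v * b⁻¹) * x) * x⁻¹ := by rw [h1]
      _ = _ := by group
  have hmem : ⁅v, x⁆ ∈ V₁ := by
    refine ⟨hvV, mem_cen.2 ?_⟩
    have e0 : ⁅v, x⁆ = v * (x * v * x⁻¹)⁻¹ := by rw [commutatorElement_def]; group
    set v' := x * v * x⁻¹ with hv'd
    have i1 : v'⁻¹ = v' := inv_eq_of_mul_eq_one_right (C.V2 v' hv')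
    rw [e0, i1]
    -- `b (v v') b⁻¹ = v v'`
    have h5 : b * (v * v') * b⁻¹ = v * v' := by
      have h6 : b * (v * v') * b⁻¹ = (b * v * b⁻¹) * (b * v' * b⁻¹) := by group
      rw [h6]
      -- from `v' (b v' b⁻¹) = v (b v b⁻¹)`
      have h7 : (b * v * b⁻¹) * (b * v' * b⁻¹) = v⁻¹ * (v * (b * v * b⁻¹)) * (v'⁻¹ * (v' * (b * v' * b⁻¹))) := by
        group
      rw [h7, h2, i1]
      have i2 : v⁻¹ = v := inv_eq_of_mul_eq_one_right (C.V2 v hv)
      rw [i2]
      set d := v * (b * v * b⁻¹) with hdd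
      have hdV : d ∈ V := hd.1
      calc v * d * (v' * d) = v * (d * v') * d := by group
        _ = v * (v' * d) * d := by rw [C.Vc d hdV v' hv']
        _ = v * v' * (d * d) := by group
        _ = v * v' := by rw [C.V2 d hdV, mul_one]
    calc v * v' * b = (b * (v * v') * b⁻¹) * b := by rw [h5]
      _ = b * (v * v') := by group
  exact (mem_centralizer_iff.1 hx2) _ hmem

end Conf

end Cfsg.Agent.H7.XiRep
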